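import Cfsg.Agent.Mult.Slices
import Cfsg.Agent.Fi23C.Mul3D

set_option autoImplicit false
set_option Elab.async false
set_option maxRecDepth 100000
set_option linter.all false

namespace Cfsg.Agent.Fi23C
open Cfsg.Agent.CGT

open Cfsg.Agent.Mult

set_option Elab.async false
theorem u3_l : u3_D.linB u3_c (u3_v0 ++ (u3_v1 ++ (u3_v2))) = true := by decide +kernel

end Cfsg.Agent.Fi23C
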