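import Cfsg.Agent.Mult.Slices
import Cfsg.Agent.Fi23C.Mul3T0
import Cfsg.Agent.Fi23C.Mul3T1
import Cfsg.Agent.Fi23C.Mul3T2

set_option autoImplicit false
set_option Elab.async false
set_option maxRecDepth 100000
set_option linter.all false

namespace Cfsg.Agent.Fi23C
open Cfsg.Agent.CGT

open Cfsg.Agent.Mult

theorem u3_pb {G : Type*} [Group G] [Finite G] {φ : G →* Equiv.Perm ℕ} {γ : ℕ → G}
    (M : Model φ γ 15 l0_ns m_ts) (hB : IsBase φ ⊤ [51, 3, 37, 8, 2, 36, 11589, 1, 0]) (hN : Nat.card G = 4089470473293004800) : PBound G 3 0 :=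
  pbound_parts' (φ := φ) (k := 15) hN (by decide +kernel) (by decide +kernel)
    (PC.rules_of_range ((((PC.rangeOK_of (a := 0) (m := 2) (rulesD_sound M hB u3_p u3_r0)).trans (PC.rangeOK_of (a := 2) (m := 2) (rulesD_sound M hB u3_p u3_r1))).trans (PC.rangeOK_of (a := 4) (m := 4) (rulesD_sound M hB u3_p u3_r2))).trans (PC.rangeOK_of (a := 8) (m := 5) (rulesD_sound M hB u3_p u3_r3))) (forall_dropL (a := 0) (m := 14) (rulesD_sound M hB u3_p u3_f0) (forall_dropL (a := 14) (m := 9) (rulesD_sound M hB u3_p u3_f1) (forall_dropL_end (l := u3_D.fusRules) (a := 23) (by decide +kernel)))))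
    (sylP_sound M u3_o) u3_ok
    ((PC.chunk_of _ u3_t0).append ((PC.chunk_of _ u3_t1).append (PC.chunk_of _ u3_t2)))
    (PC.lin_of_linB u3_l)

end Cfsg.Agent.Fi23C
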