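import Cfsg.Agent.Mult.Slices
import Cfsg.Agent.Fi23C.Tabs

set_option autoImplicit false
set_option Elab.async false
set_option maxRecDepth 100000
set_option linter.all false

namespace Cfsg.Agent.Fi23C
open Cfsg.Agent.CGT

open Cfsg.Agent.Mult

noncomputable def u5_D : PC := ⟨5, 2, 3, 21,
  [[0, 8], [0, 0]],
  [0, 0],
  [(2, 1, 0x21), (2, 8, 0x18), (3, 8, 0x1a)], 9, 0x1000100000001⟩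
noncomputable def u5_ds : List (List ℕ) := [[6, 16, 8, 6, 4, 6, 16, 10, 8, 6, 18, 16, 6, 8, 10, 4, 6, 2, 4, 6, 8, 16, 6, 16, 18, 16, 0, 2, 6, 8, 4, 2, 0, 6, 16, 8, 10, 6, 4, 2, 18, 12, 10, 8, 6, 4, 2, 0, 16, 6, 4, 2, 8, 6, 4, 10, 8, 16, 18, 16, 6, 4, 2, 8, 6, 4, 10, 16, 6, 8, 18, 16, 6, 14, 12, 10, 8, 6, 4, 2, 0, 16, 6, 4, 2, 8, 10, 18, 16, 6, 4, 2, 0, 8, 6, 10, 8, 12, 10, 16, 6, 4, 8, 6, 18, 16, 12, 2, 6], [2, 4, 16, 0, 6, 16, 8, 6, 18, 16, 4, 8, 6, 2, 4, 8, 6, 10, 2, 16, 18, 8, 4, 6, 16, 8, 18, 4, 6, 8, 12, 10, 8, 6, 4, 2, 0, 16, 6, 4, 2, 8, 6, 10, 8, 12, 10, 16, 6, 18, 16, 6, 4, 14, 12, 10, 8, 6, 4, 2, 0, 16, 6, 4, 2, 8, 6, 10, 8, 12, 18, 16, 6, 4, 2, 8, 6, 4, 10, 8, 12, 16, 6, 8, 18, 16, 10, 18, 12, 6], [12, 4, 16, 8,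 16, 6, 18, 16, 4, 6, 10, 8, 6, 16, 2, 4, 6, 8, 10, 16, 8, 6, 2, 4, 6, 8, 16, 6, 0, 18, 16, 0, 2, 4, 6, 4, 0, 2, 6, 4, 8, 10, 16, 6, 8, 10, 12, 10, 8, 6, 4, 2, 0, 16, 6, 4, 8, 6, 18, 16, 6, 4, 2, 8, 10, 12, 14, 12, 10, 8, 6, 4, 2, 0, 16, 6, 4, 2, 8, 6, 4, 10, 8, 18, 16, 6, 4, 2, 8, 6, 4, 10, 8, 12, 10, 16, 6, 4, 2, 0, 8, 18, 16, 6, 4, 2, 0, 4], [6, 8, 2, 4, 6, 16, 18, 10, 8, 6, 16, 8, 10, 12, 6, 8, 10, 4, 6, 8, 0, 2, 4, 6, 16, 18, 8, 10, 4, 6, 8, 2, 4, 6, 16, 0, 2, 4, 6, 8, 10, 12, 14, 16, 8, 10, 4, 6, 8, 2, 4, 6, 16, 18, 10, 4, 6, 8, 2, 4, 6, 16, 0, 2, 4, 6, 8, 10, 12, 8, 10, 6, 8, 10, 16, 6, 4, 18, 6, 16, 8, 6, 4, 2, 0, 16, 8, 6, 16, 8, 6, 4, 10, 8, 6, 16, 18, 16, 6, 8, 10, 4, 6, 8, 16, 6, 2, 14, 2, 18, 2, 4, 6]]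
noncomputable def u5_c : Mult.Cert := ⟨27, 18, [[], []],
  [],
  [[0xd, 0x4b], [0, 0xf]]⟩

end Cfsg.Agent.Fi23C
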