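import Cfsg.Agent.Mult.Slices
import Cfsg.Agent.Fi23C.Mul5D

set_option autoImplicit false
set_option Elab.async false
set_option maxRecDepth 100000
set_option linter.all false

namespace Cfsg.Agent.Fi23C
open Cfsg.Agent.CGT

open Cfsg.Agent.Mult

set_option Elab.async false
theorem u5_all : allB u5_D u5_c [.fus 2 [1, 0] [0, 1], .fus 2 [1, 1, 1, 1, 1] [], .fus 3 [2, 2, 2, 2, 2] []] 15 m_ts u5_ds [51, 3, 37, 8, 2, 36, 11589, 1, 0] [(287, [8]), (0, [1])] = true := by decide +kernel

end Cfsg.Agent.Fi23C
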